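import Mathlib
import Cfsg.Agent.Lib.Ru.T.Cert

/-! generated by tools/cgt -/

set_option autoImplicit false
set_option maxRecDepth 100000
set_option Elab.async false

namespace CfsgLib.Ru.T

open CfsgLib.Comput

theorem e_l7_0 : allL (eqChk (stepT 4060 12 W) (idTab 4060 12)) L7.eqns = true := by decide +kernel
theorem e_x7_0 : allL (eqChk (stepT 4060 12 W) (idTab 4060 12)) X7.eqns = true := by decide +kernel
theorem e_l6_0 : allL (eqChk (stepT 4060 12 W) (idTab 4060 12)) L6.eqns = true := by decide +kernel
theorem e_x6_0 : allL (eqChk (stepT 4060 12 W) (idTab 4060 12)) X6.eqns = true := by decide +kernel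
theorem e_l5_0 : allL (eqChk (stepT 4060 12 W) (idTab 4060 12)) L5.eqns = true := by decide +kernel
theorem e_x5_0 : allL (eqChk (stepT 4060 12 W) (idTab 4060 12)) X5.eqns = true := by decide +kernel
theorem e_l4_0 : allL (eqChk (stepT 4060 12 W) (idTab 4060 12)) L4.eqns = true := by decide +kernel
theorem e_x4_0 : allL (eqChk (stepT 4060 12 W) (idTab 4060 12)) X4.eqns = true := by decide +kernel
theorem e_l3_0 : allL (eqChk (stepT 4060 12 W) (idTab 4060 12)) L3.eqns = true := by decide +kernel
theorem e_x3_0 : allL (eqChk (stepT 4060 12 W) (idTab 4060 12)) X3.eqns = true := by decide +kernel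
theorem e_l2_0 : allL (eqChk (stepT 4060 12 W) (idTab 4060 12)) L2.eqns = true := by decide +kernel
theorem e_x2_0 : allL (eqChk (stepT 4060 12 W) (idTab 4060 12)) X2.eqns = true := by decide +kernel
theorem e_l1_0 : allL (eqChk (stepT 4060 12 W) (idTab 4060 12)) L1.eqns = true := by decide +kernel
theorem e_x1_0 : allL (eqChk (stepT 4060 12 W) (idTab 4060 12)) X1.eqns = true := by decide +kernel
theorem e_l0_0 : allL (eqChk (stepT 4060 12 W) (idTab 4060 12)) L0.eqns = true := by decide +kernel
theorem e_x0_0 : allL (eqChk (stepT 4060 12 W) (idTab 4060 12)) X0.eqns = true := by decide +kernel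
theorem e_xd_0 : allL (eqChk (stepT 4060 12 W) (idTab 4060 12)) XD.eqns = true := by decide +kernel
theorem e_mx_0 : allL (eqChk (stepT 4060 12 W) (idTab 4060 12)) (L0.maxEqns MX) = true := by decide +kernel
theorem e_nc_0 : allL (eqChk (stepT 4060 12 W) (idTab 4060 12)) NC.eqns = true := by decide +kernel

end CfsgLib.Ru.T
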