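import Mathlib
import Cfsg.Agent.Lib.Ru.T.Cert

/-! generated by tools/cgt -/

set_option autoImplicit false
set_option maxRecDepth 100000
set_option Elab.async false

namespace CfsgLib.Ru.T

open CfsgLib.Comput

theorem s_fix : band (Nat.ble (Nat.succ L0.a) 4060) (closedB (stepN W) L0.hs (Nat.shiftLeft 1 L0.a)) = true := by decide +kernel
theorem s_base : allL (fun a => band (Nat.ble (Nat.succ a) 4060) (tb (grow (stepN W) top 19 (Nat.shiftLeft 1 L0.a)) a)) [2305, 4053, 3924, 3879, 3909, 3727, 2535, 2515] = true := by decide +kernel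

end CfsgLib.Ru.T
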