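import Mathlib
import Cfsg.Agent.Lib.Ru.T.Cert
import Cfsg.Agent.Lib.Ru.T.Eq0
import Cfsg.Agent.Lib.Ru.T.Set0
import Cfsg.Agent.Lib.Ru.T.Set1

/-! generated by tools/cgt -/

set_option autoImplicit false
set_option maxRecDepth 100000
set_option Elab.async false

namespace CfsgLib.Ru.T

open CfsgLib.Comput

theorem eqs_of_WM {G : Type*} [Group G] {g : ℕ → G} (h : WM g (stepT 4060 12 W) (idTab 4060 12)) : Eqs g where
  l7 := (h.allHold e_l7_0)
  x7 := (h.allHold e_x7_0)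
  l6 := (h.allHold e_l6_0)
  x6 := (h.allHold e_x6_0)
  l5 := (h.allHold e_l5_0)
  x5 := (h.allHold e_x5_0)
  l4 := (h.allHold e_l4_0)
  x4 := (h.allHold e_x4_0)
  l3 := (h.allHold e_l3_0)
  x3 := (h.allHold e_x3_0)
  l2 := (h.allHold e_l2_0)
  x2 := (h.allHold e_x2_0)
  l1 := (h.allHold e_l1_0)
  x1 := (h.allHold e_x1_0)
  l0 := (h.allHold e_l0_0)
  x0 := (h.allHold e_x0_0)
  xd := (h.allHold e_xd_0)
  mx := (h.allHold e_mx_0)
  nc := (h.allHold e_nc_0)

section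
variable {G Ω : Type*} [Group G] [MulAction G Ω] {g : ℕ → G} {pt : ℕ → Ω}

theorem inA_7 (E : Eqs g) : InA g L7.B (cl g (L7.ts ++ L7.hs)) :=
  inA_up (A := L7.A) (InA.zero g _) L7.ts X7 E.x7 (by decide +kernel)

theorem good_7 (M : SM g 4060 pt (stepN W)) (E : Eqs g) : L7.Good g pt :=
  L7.sound M (InA.zero g _) (inA_7 E) (card_cl_nil g) E.l7 s_7

theorem card_7 (M : SM g 4060 pt (stepN W)) (E : Eqs g) : Nat.card (cl g (L7.ts ++ L7.hs)) = 2 :=
  (good_7 M E).card (card_cl_nil g)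

theorem inA_6 (E : Eqs g) : InA g L6.B (cl g (L6.ts ++ L6.hs)) :=
  inA_up (A := L6.A) (inA_7 E) L6.ts X6 E.x6 (by decide +kernel)

theorem good_6 (M : SM g 4060 pt (stepN W)) (E : Eqs g) : L6.Good g pt :=
  L6.sound M (inA_7 E) (inA_6 E) (card_7 M E) E.l6 s_6

theorem card_6 (M : SM g 4060 pt (stepN W)) (E : Eqs g) : Nat.card (cl g (L6.ts ++ L6.hs)) = 8 :=
  (good_6 M E).card (card_7 M E)

theorem inA_5 (E : Eqs g) : InA g L5.B (cl g (L5.ts ++ L5.hs)) :=
  inA_up (A := L5.A) (inA_6 E) L5.ts X5 E.x5 (by decide +kernel)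

theorem good_5 (M : SM g 4060 pt (stepN W)) (E : Eqs g) : L5.Good g pt :=
  L5.sound M (inA_6 E) (inA_5 E) (card_6 M E) E.l5 s_5

theorem card_5 (M : SM g 4060 pt (stepN W)) (E : Eqs g) : Nat.card (cl g (L5.ts ++ L5.hs)) = 32 :=
  (good_5 M E).card (card_6 M E)

theorem inA_4 (E : Eqs g) : InA g L4.B (cl g (L4.ts ++ L4.hs)) :=
  inA_up (A := L4.A) (inA_5 E) L4.ts X4 E.x4 (by decide +kernel)

theorem good_4 (M : SM g 4060 pt (stepN W)) (E : Eqs g) : L4.Good g pt :=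
  L4.sound M (inA_5 E) (inA_4 E) (card_5 M E) E.l4 s_4

theorem card_4 (M : SM g 4060 pt (stepN W)) (E : Eqs g) : Nat.card (cl g (L4.ts ++ L4.hs)) = 64 :=
  (good_4 M E).card (card_5 M E)

theorem inA_3 (E : Eqs g) : InA g L3.B (cl g (L3.ts ++ L3.hs)) :=
  inA_up (A := L3.A) (inA_4 E) L3.ts X3 E.x3 (by decide +kernel)

theorem good_3 (M : SM g 4060 pt (stepN W)) (E : Eqs g) : L3.Good g pt :=
  L3.sound M (inA_4 E) (inA_3 E) (card_4 M E) E.l3 s_3

theorem card_3 (M : SM g 4060 pt (stepN W)) (E : Eqs g) : Nat.card (cl g (L3.ts ++ L3.hs)) = 128 :=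
  (good_3 M E).card (card_4 M E)

theorem inA_2 (E : Eqs g) : InA g L2.B (cl g (L2.ts ++ L2.hs)) :=
  inA_up (A := L2.A) (inA_3 E) L2.ts X2 E.x2 (by decide +kernel)

theorem good_2 (M : SM g 4060 pt (stepN W)) (E : Eqs g) : L2.Good g pt :=
  L2.sound M (inA_3 E) (inA_2 E) (card_3 M E) E.l2 s_2

theorem card_2 (M : SM g 4060 pt (stepN W)) (E : Eqs g) : Nat.card (cl g (L2.ts ++ L2.hs)) = 1024 :=
  (good_2 M E).card (card_3 M E)

theorem inA_1 (E : Eqs g) : InA g L1.B (cl g (L1.ts ++ L1.hs)) :=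
  inA_up (A := L1.A) (inA_2 E) L1.ts X1 E.x1 (by decide +kernel)

theorem good_1 (M : SM g 4060 pt (stepN W)) (E : Eqs g) : L1.Good g pt :=
  L1.sound M (inA_2 E) (inA_1 E) (card_2 M E) E.l1 s_1

theorem card_1 (M : SM g 4060 pt (stepN W)) (E : Eqs g) : Nat.card (cl g (L1.ts ++ L1.hs)) = 10240 :=
  (good_1 M E).card (card_2 M E)

theorem inA_0 (E : Eqs g) : InA g L0.B (cl g (L0.ts ++ L0.hs)) :=
  inA_up (A := L0.A) (inA_1 E) L0.ts X0 E.x0 (by decide +kernel)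

theorem good_0 (M : SM g 4060 pt (stepN W)) (E : Eqs g) : L0.Good g pt :=
  L0.sound M (inA_1 E) (inA_0 E) (card_1 M E) E.l0 s_0

theorem card_0 (M : SM g 4060 pt (stepN W)) (E : Eqs g) : Nat.card (cl g (L0.ts ++ L0.hs)) = 17971200 :=
  (good_0 M E).card (card_1 M E)

theorem inA_top (E : Eqs g) : InA g 0x1fffffff (cl g top) := XD.sound' (inA_cl g top) E.xd (by decide +kernel)

theorem top_eq (E : Eqs g) : cl g top = cl g (L0.ts ++ L0.hs) := cl_eq_of_inA (inA_top E) (inA_0 E) (by decide +kernel)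

theorem card (M : SM g 4060 pt (stepN W)) (E : Eqs g) : Nat.card (cl g top) = 17971200 := by rw [top_eq E]; exact card_0 M E

theorem maximal (M : SM g 4060 pt (stepN W)) (E : Eqs g) (K : Subgroup G) (h1 : cl g L0.hs ≤ K) (h2 : K ≤ cl g (L0.ts ++ L0.hs)) :
    K = cl g L0.hs ∨ K = cl g (L0.ts ++ L0.hs) :=
  (good_0 M E).maximal (inA_1 E) MX E.mx (by decide +kernel) K h1 h2

theorem dichotomy (M : SM g 4060 pt (stepN W)) (E : Eqs g) (K : Subgroup G) (hK : K ≤ cl g (L0.ts ++ L0.hs)) (hn : NormBy K (cl g (L0.ts ++ L0.hs))) :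
    K ≤ cl g L0.hs ∨ K = cl g (L0.ts ++ L0.hs) :=
  NC.dichotomy (inA_0 E) (top_eq E).ge E.nc (by decide +kernel) (card_1 M E) (good_0 M E).1.le (maximal M E) K hK hn

theorem base_faith (M : SM g 4060 pt (stepN W)) (E : Eqs g) (x : G) (hx : x ∈ cl g (L0.ts ++ L0.hs)) (h : ∀ a ∈ [2305, 4053, 3924, 3879, 3909, 3727, 2535, 2515], x • pt a = pt a) : x = 1 := by
  have h0 : x ∈ cl g L0.hs := (good_0 M E).1.stab x hx 1 (Subgroup.one_mem _) (by rw [one_smul]; exact h 2305 (by decide))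
  have h1 : x ∈ cl g L1.hs := (good_1 M E).1.stab x h0 1 (Subgroup.one_mem _) (by rw [one_smul]; exact h 4053 (by decide))
  have h2 : x ∈ cl g L2.hs := (good_2 M E).1.stab x h1 1 (Subgroup.one_mem _) (by rw [one_smul]; exact h 3924 (by decide))
  have h3 : x ∈ cl g L3.hs := (good_3 M E).1.stab x h2 1 (Subgroup.one_mem _) (by rw [one_smul]; exact h 3879 (by decide))
  have h4 : x ∈ cl g L4.hs := (good_4 M E).1.stab x h3 1 (Subgroup.one_mem _) (by rw [one_smul]; exact h 3909 (by decide))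
  have h5 : x ∈ cl g L5.hs := (good_5 M E).1.stab x h4 1 (Subgroup.one_mem _) (by rw [one_smul]; exact h 3727 (by decide))
  have h6 : x ∈ cl g L6.hs := (good_6 M E).1.stab x h5 1 (Subgroup.one_mem _) (by rw [one_smul]; exact h 2535 (by decide))
  have h7 : x ∈ cl g L7.hs := (good_7 M E).1.stab x h6 1 (Subgroup.one_mem _) (by rw [one_smul]; exact h 2515 (by decide))
  exact Subgroup.mem_bot.1 (cl_nil g ▸ h7)

theorem simple (M : SM g 4060 pt (stepN W)) (E : Eqs g) : IsSimpleGroup (cl g top) := by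
  rw [top_eq E]
  refine isSimpleGroup_of_dichotomy (ne_bot_of_card (card_0 M E) (by norm_num)) (M.fixes s_fix) (fun x hx h => ?_) (dichotomy M E)
  exact base_faith M E x hx fun a ha => h _ (M.mem_orbit_of_grow (top_eq E).le (by decide) s_base a ha)

end

theorem M : SM (permG 4060 W) 4060 (finPt 4060) (stepN W) := SM.perm W_ok (by norm_num)

theorem E : Eqs (permG 4060 W) := eqs_of_WM (WM.perm W_ok (by norm_num))

theorem card_perm : Nat.card (cl (permG 4060 W) top) = 17971200 := card M E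


end CfsgLib.Ru.T
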